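import Mathlib
import Cfsg.Agent.Base
import Cfsg.Agent.Lib.Leech.Word

/-!
An isometry of the Leech lattice that commutes with an extraspecial group of order `3 ^ 5` acts on the
fixed vectors as a sign.
-/

set_option autoImplicit false

namespace U4F.LC

open H16 Cfsg

/-- the inner product -/
def B (v w : leechLattice) : ℤ := dotInt (v : GolayPt → ℤ) (w : GolayPt → ℤ)

/-- three times the projection to the fixed space -/
def nn (z : Co0) (v : leechLattice) : leechLattice := v + z • v + z • z • v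

theorem B_comm (v w : leechLattice) : B v w = B w v := dotInt_comm _ _
theorem B_add (u v w : leechLattice) : B (u + v) w = B u w + B v w := H16.dotInt_add_left _ _ _
theorem B_add' (u v w : leechLattice) : B u (v + w) = B u v + B u w := dotInt_add_right _ _ _
theorem B_smul (k : ℤ) (v w : leechLattice) : B (k • v) w = k * B v w := dotInt_smul_left _ _ _
theorem B_smul' (k : ℤ) (v w : leechLattice) : B v (k • w) = k * B v w := dotInt_smul_right _ _ _
theorem B_co (g : Co0) (v w : leechLattice) : B (g • v) (g • w) = B v w := dotInt_co0 _ _ _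
theorem B_zero (v : leechLattice) : B v 0 = 0 := by simpa using B_smul' 0 v 0
theorem B_dvd (v w : leechLattice) : 8 ∣ B v w := eight_dvd_dotInt v.2 w.2
theorem B_sub (u v : leechLattice) : B (u - v) (u - v) = B u u + B v v - 2 * B u v := by
  simp only [B, dotInt_self]; exact sqNorm_sub _ _
theorem B_nonneg (v : leechLattice) : 0 ≤ B v v := by rw [B, dotInt_self]; exact sqNorm_nonneg _
theorem B_small {v : leechLattice} (h : B v v < 32) : v = 0 :=
  Subtype.ext (eq_zero_of_sqNorm_lt v.2 (by rwa [B, dotInt_self] at h))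

theorem cancel {k : ℤ} (h : k ≠ 0) {v w : leechLattice} (e : k • v = k • w) : v = w :=
  Subtype.ext (funext fun i => mul_left_cancel₀ h (congrArg (fun y : leechLattice => (y : GolayPt → ℤ) i) e))

theorem nn_comm {g z : Co0} (h : g * z = z * g) (v : leechLattice) : g • nn z v = nn z (g • v) := by
  simp only [nn, smul_add, ← mul_smul, ← mul_assoc, h]
  rw [mul_assoc z g z, h, mul_assoc]

theorem six {a b : ℤ} (h : a ^ 2 - a * b + b ^ 2 = 1) : (a = 1 ∧ b = 0) ∨ (a = -1 ∧ b = 0) ∨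
    (a = 0 ∧ b = 1) ∨ (a = 0 ∧ b = -1) ∨ (a = 1 ∧ b = 1) ∨ (a = -1 ∧ b = -1) := by
  have h1 : a ≤ 1 := by nlinarith [sq_nonneg (a - 2 * b)]
  have h2 : -1 ≤ a := by nlinarith [sq_nonneg (a - 2 * b)]
  have h3 : b ≤ 1 := by nlinarith [sq_nonneg (b - 2 * a)]
  have h4 : -1 ≤ b := by nlinarith [sq_nonneg (b - 2 * a)]
  interval_cases a <;> interval_cases b <;> simp_all

theorem cen_abs {z g : Co0} {a : ℕ → leechLattice} {N : ℤ} {l₁ l₂ : leechLattice}
    (h3 : z * z * z = 1) (hg : g * z = z * g) (h0 : N ≠ 0) (hN : B (a 0) (a 0) = N)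
    (ha : ∀ j < 9, ∃ t : Co0, g * t = t * g ∧ z * t = t * z ∧ a j = t • a 0) (hn : nn z (a 0) = 0)
    (ho : ∀ j < 9, j ≠ 0 → ∃ e : Co0, g * e = e * g ∧ z * e = e * z ∧ e • a 0 = a 0 ∧ e • a j = z • a j)
    (dec : ∀ v, N • ((3 : ℤ) • v - nn z v) = ∑ j ∈ Finset.range 9,
      ((4 * B v (a j) + 2 * B v (z • a j)) • a j + (2 * B v (a j) + 4 * B v (z • a j)) • z • a j))
    (d1 : B (a 0) l₁ = 8) (d2 : B (z • a 0) l₁ = 0) (d3 : B (a 0) l₂ = 0) (d4 : B (z • a 0) l₂ = 8) :
    ∃ s : ℤ, (s = 1 ∨ s = -1) ∧ ∀ l, B (nn z l) (nn z l) ≤ 48 → g • nn z l = s • nn z l := by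
  have z3 : ∀ v : leechLattice, z • z • z • v = v := fun v => by
    rw [← mul_smul, ← mul_smul, h3, one_smul]
  have o : ∀ j < 9, j ≠ 0 → B (g • a 0) (a j) = 0 ∧ B (g • a 0) (z • a j) = 0 := fun j hj hj' => by
    obtain ⟨t, -, t2, t3⟩ := ha j hj
    obtain ⟨e, e1, e2, e3, e4⟩ := ho j hj hj'
    have f : e • g • a 0 = g • a 0 := by rw [← mul_smul, ← e1, mul_smul, e3]
    have k1 := B_co e (g • a 0) (a j)
    have k2 := B_co e (g • a 0) (z • a j)
    rw [← mul_smul e z, ← e2, mul_smul z e, f, e4] at k2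
    rw [f, e4] at k1
    have k3 : nn z (a j) = 0 := by rw [t3, ← nn_comm t2.symm, hn, smul_zero]
    have k4 := B_zero (g • a 0)
    rw [← k3, nn, B_add', B_add'] at k4
    omega
  have e1 := dec (g • a 0)
  rw [← nn_comm hg, hn, smul_zero, sub_zero, Finset.sum_eq_single 0 (fun j hj hj' => by
    simp [(o j (Finset.mem_range.1 hj) hj').1, (o j (Finset.mem_range.1 hj) hj').2]) (by simp),
    smul_smul] at e1
  obtain ⟨k₁, hk₁⟩ := B_dvd (g • a 0) l₁
  obtain ⟨k₂, hk₂⟩ := B_dvd (g • a 0) l₂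
  have f1 := congrArg (B · l₁) e1
  have f2 := congrArg (B · l₂) e1
  simp only [B_add, B_smul, d1, d2, d3, d4, hk₁, hk₂] at f1 f2
  have e2 : g • a 0 = k₁ • a 0 + k₂ • z • a 0 := cancel (mul_ne_zero h0 three_ne_zero) (by
    rw [e1, smul_add, smul_smul, smul_smul]
    congr 2 <;> linarith)
  have p1 : B (a 0) (z • z • a 0) = B (a 0) (z • a 0) := by rw [← B_co z, z3, B_comm]
  have p2 := B_zero (a 0)
  rw [← hn, nn, B_add', B_add', p1, hN] at p2
  have p3 := B_co g (a 0) (a 0)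
  rw [e2] at p3
  simp only [B_add, B_add', B_smul, B_smul', B_co, hN, B_comm (z • a 0) (a 0)] at p3
  have p4 : k₁ ^ 2 - k₁ * k₂ + k₂ ^ 2 = 1 :=
    mul_left_cancel₀ h0 (by linear_combination p3 - k₁ * k₂ * p2)
  have q : a 0 + z • a 0 = -(z • z • a 0) := eq_neg_of_add_eq_zero_left hn
  obtain ⟨s, hs, y, y1, y2, y3⟩ : ∃ s : ℤ, (s = 1 ∨ s = -1) ∧ ∃ y : Co0, (∀ t, z * t = t * z → y * t = t * y) ∧
      (∀ v : leechLattice, z • v = v → y • v = v) ∧ y • g • a 0 = s • a 0 := by
    have c1 : ∀ t : Co0, z * t = t * z → z * z * t = t * (z * z) := fun t e => by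
      rw [mul_assoc, e, ← mul_assoc, e, mul_assoc]
    have c2 : ∀ v : leechLattice, z • v = v → (z * z) • v = v := fun v e => by rw [mul_smul, e, e]
    rcases six p4 with ⟨rfl, rfl⟩ | ⟨rfl, rfl⟩ | ⟨rfl, rfl⟩ | ⟨rfl, rfl⟩ | ⟨rfl, rfl⟩ | ⟨rfl, rfl⟩
    · exact ⟨1, .inl rfl, 1, by simp, fun v _ => one_smul _ v, by simp [e2]⟩
    · exact ⟨-1, .inr rfl, 1, by simp, fun v _ => one_smul _ v, by simp [e2]⟩
    · exact ⟨1, .inl rfl, z * z, c1, c2, by simp [e2, mul_smul, z3]⟩
    · exact ⟨-1, .inr rfl, z * z, c1, c2, by simp [e2, mul_smul, z3]⟩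
    · exact ⟨-1, .inr rfl, z, fun _ e => e, fun _ e => e, by
        rw [e2, one_smul, one_smul, q]; simp [z3]⟩
    · exact ⟨1, .inl rfl, z, fun _ e => e, fun _ e => e, by
        rw [e2, ← smul_add, q]; simp [z3]⟩
  refine ⟨s, hs, fun l hl => ?_⟩
  have s2 : s * s = 1 := by rcases hs with rfl | rfl <;> rfl
  have hy : y * g * z = z * (y * g) := by rw [mul_assoc, hg, ← mul_assoc, y1 z rfl, mul_assoc]
  have fa : ∀ j < 9, (y * g) • a j = s • a j := fun j hj => by
    obtain ⟨t, t1, t2, t3⟩ := ha j hj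
    rw [t3, ← mul_smul, mul_assoc, t1, ← mul_assoc, y1 t t2, mul_assoc, mul_smul, mul_smul, y3,
      co0_smul_zsmul]
  have fb : ∀ j < 9, (y * g) • z • a j = s • z • a j := fun j hj => by
    rw [← mul_smul, hy, mul_smul, fa j hj, co0_smul_zsmul]
  have e3 : (y * g) • ((3 : ℤ) • l - nn z l) = s • ((3 : ℤ) • l - nn z l) := cancel h0 (by
    rw [← co0_smul_zsmul, smul_comm N s, dec, Finset.smul_sum, Finset.smul_sum]
    refine Finset.sum_congr rfl fun j hj => ?_
    rw [smul_add, smul_add, co0_smul_zsmul, co0_smul_zsmul, fa j (Finset.mem_range.1 hj),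
      fb j (Finset.mem_range.1 hj), smul_smul, smul_smul, smul_smul, smul_smul, mul_comm s, mul_comm s])
  have e4 : (3 : ℤ) • ((y * g) • l - s • l) = (y * g) • nn z l - s • nn z l := by
    rw [smul_sub, smul_sub, co0_smul_zsmul, smul_comm s] at e3
    rw [smul_sub, sub_eq_sub_iff_sub_eq_sub, e3]
  have n1 : B _ _ = B _ _ := congrArg (fun v => B v v) e4
  have n2 := B_nonneg ((y * g) • nn z l + s • nn z l)
  rw [B_smul, B_smul', B_sub ((y * g) • nn z l)] at n1
  simp only [B_add, B_add', B_smul, B_smul', B_co, mul_add,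
    B_comm (nn z l) ((y * g) • nn z l), ← mul_assoc s s, s2] at n1 n2
  have e5 := B_small (v := (y * g) • l - s • l) (by linarith)
  rw [e5, smul_zero, eq_comm, sub_eq_zero, mul_smul, y2] at e4
  · exact e4
  · rw [← mul_smul, ← hg, mul_smul, nn, smul_add z, smul_add z, z3]; congr 1; abel

theorem dec_of {z : Co0} {a : ℕ → leechLattice} {N : ℤ}
    (h : ∀ i k, N * (16 * (Pi.single i 1 : GolayPt → ℤ) k - (z • e8 i : leechLattice).1 k -
      (z • z • e8 i : leechLattice).1 k) = ∑ j ∈ Finset.range 9,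
        ((32 * (a j).1 i + 16 * (z • a j).1 i) * (a j).1 k +
          (16 * (a j).1 i + 32 * (z • a j).1 i) * (z • a j).1 k)) (v : leechLattice) :
    N • ((3 : ℤ) • v - nn z v) = ∑ j ∈ Finset.range 9,
      ((4 * B v (a j) + 2 * B v (z • a j)) • a j + (2 * B v (a j) + 4 * B v (z • a j)) • z • a j) := by
  refine cancel (k := 8) (by norm_num) (Subtype.ext (funext fun k => ?_))
  have e1 := eight_mul_co0 z v k
  have e2 := eight_mul_co0 (z * z) v k
  have e3 : ∑ i, v.1 i * (Pi.single i 1 : GolayPt → ℤ) k = v.1 k := by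
    simp [Pi.single_apply]
  have e4 := Finset.sum_congr (rfl : Finset.univ = Finset.univ) fun i _ => congrArg (v.1 i * ·) (h i k)
  simp only [mul_smul] at e2
  simp only [mul_sub, mul_left_comm (v.1 _), Finset.sum_sub_distrib, ← Finset.mul_sum, e3, ← e1,
    ← e2] at e4
  simp only [nn, B, dotInt, AddSubgroup.coe_zsmul, AddSubgroup.coe_add, AddSubgroup.coe_sub,
    AddSubmonoidClass.coe_finsetSum, Finset.sum_apply, Pi.smul_apply, Pi.add_apply, Pi.sub_apply,
    smul_eq_mul]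
  rw [show 8 * (N * (3 * v.1 k - (v.1 k + (z • v : leechLattice).1 k + (z • z • v : leechLattice).1 k))) =
    N * (16 * v.1 k) - N * (8 * (z • v : leechLattice).1 k) -
      N * (8 * (z • z • v : leechLattice).1 k) by ring, e4]
  simp only [Finset.mul_sum, Finset.sum_mul, add_mul, ← Finset.sum_add_distrib]
  rw [Finset.sum_comm]
  refine Finset.sum_congr rfl fun j _ => ?_
  exact Finset.sum_congr rfl fun i _ => by ring

theorem syl {v : leechLattice} (h : v ∈ H16.Min) : ¬ 3 ^ 7 ∣ Nat.card (MulAction.stabilizer Co0 v) := by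
  obtain ⟨g, rfl⟩ := exists_smul_U h
  rw [Nat.card_congr (MulAction.stabilizerEquivStabilizer (g := g) (a := vU) rfl).toEquiv.symm,
    show Nat.card (MulAction.stabilizer Co0 vU) = 42305421312000 from card_Co2]
  norm_num

theorem lc0_eq_defs : True := by
  have := @B.eq_1
  have := @nn.eq_1
  trivial

end U4F.LC
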